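import Cfsg.Agent.Lib.ToddCox.J3O.OrbD
set_option autoImplicit false
set_option maxRecDepth 100000
namespace Cfsg.Agent.Lib.ToddCox.J3O
open Cfsg.Agent.Lib.ToddCox.J3T in
theorem lv0_0 : allBits (fun k => bif Nat.blt k 6156 then chkOrbPos Cfsg.Agent.Lib.ToddCox.J3T.tab L 0 0 6156 6156 (fun q => orbR (Nat.add 0 q)) k else true) 11 0 = true := by decide +kernel
theorem lv0_1 : allBits (fun k => bif Nat.blt k 6156 then chkOrbPos Cfsg.Agent.Lib.ToddCox.J3T.tab L 0 0 6156 6156 (fun q => orbR (Nat.add 0 q)) k else true) 11 2048 = true := by decide +kernel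
theorem lv0_2 : allBits (fun k => bif Nat.blt k 6156 then chkOrbPos Cfsg.Agent.Lib.ToddCox.J3T.tab L 0 0 6156 6156 (fun q => orbR (Nat.add 0 q)) k else true) 11 4096 = true := by decide +kernel
theorem lv0_3 : allBits (fun k => bif Nat.blt k 6156 then chkOrbPos Cfsg.Agent.Lib.ToddCox.J3T.tab L 0 0 6156 6156 (fun q => orbR (Nat.add 0 q)) k else true) 11 6144 = true := by decide +kernel
theorem fx0 : ∀ w ∈ L.drop 5, tabW Cfsg.Agent.Lib.ToddCox.J3T.tab w 0 = 0 := by decide +kernel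
theorem lv1_0 : allBits (fun k => bif Nat.blt k 2040 then chkOrbPos Cfsg.Agent.Lib.ToddCox.J3T.tab L 5 1361 2040 6156 (fun q => orbR (Nat.add 6156 q)) k else true) 11 0 = true := by decide +kernel
theorem fx1 : ∀ w ∈ L.drop 9, tabW Cfsg.Agent.Lib.ToddCox.J3T.tab w 1361 = 1361 := by decide +kernel
theorem lv2_0 : allBits (fun k => bif Nat.blt k 4 then chkOrbPos Cfsg.Agent.Lib.ToddCox.J3T.tab L 9 1 4 6156 (fun q => orbR (Nat.add 8196 q)) k else true) 11 0 = true := by decide +kernel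
theorem fx2 : ∀ w ∈ L.drop 10, tabW Cfsg.Agent.Lib.ToddCox.J3T.tab w 1 = 1 := by decide +kernel
end Cfsg.Agent.Lib.ToddCox.J3O
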